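import Mathlib
import Cfsg.Agent.Lib.Helper12.KS.Defs

set_option autoImplicit false

/-!
# S0518 package [Iso]: a subgroup of order 24 of `P ≅ S₄ × C₂` avoiding `c` is `S₄`
-/

universe u

namespace Cfsg.Agent.Lib.Helper62.KS

open Cfsg.Agent.Lib.Helper12.KS

theorem mdl_snd (s : Multiplicative (ZMod 2)) : s = 1 ∨ s = Multiplicative.ofAdd 1 := by
  revert s
  decide

variable {G : Type u} [Group G]

/-- the first projection of the model isomorphism, on a subgroup of `P` -/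
noncomputable def projHom {P K : Subgroup G} (e : ↥P ≃* Mdl) (hKP : K ≤ P) :
    ↥K →* Equiv.Perm (Fin 4) :=
  (MonoidHom.fst _ _).comp (e.toMonoidHom.comp (Subgroup.inclusion hKP))

theorem projHom_apply {P K : Subgroup G} (e : ↥P ≃* Mdl) (hKP : K ≤ P) (k : ↥K) :
    projHom e hKP k = (e ⟨k.1, hKP k.2⟩).1 := rfl

theorem projHom_injective {P K : Subgroup G} (e : ↥P ≃* Mdl) (hKP : K ≤ P) (c : G)
    (hc : ∀ x : ↥P, (x : G) = c ↔ e x = (1, Multiplicative.ofAdd 1)) (hcK : c ∉ K) :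
    Function.Injective (projHom e hKP) := by
  rw [injective_iff_map_eq_one]
  intro k hk
  rw [projHom_apply] at hk
  rcases mdl_snd (e ⟨k.1, hKP k.2⟩).2 with h2 | h2
  · have h1 : e ⟨k.1, hKP k.2⟩ = 1 := Prod.ext hk h2
    have h3 : (⟨k.1, hKP k.2⟩ : ↥P) = 1 := by
      apply e.injective
      rw [h1, map_one]
    apply Subtype.ext
    have h4 : ((⟨k.1, hKP k.2⟩ : ↥P) : G) = ((1 : ↥P) : G) := congrArg Subtype.val h3
    exact h4
  · exfalso
    apply hcK
    have h1 : e ⟨k.1, hKP k.2⟩ = (1, Multiplicative.ofAdd 1) := Prod.ext hk h2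
    have h3 : k.1 = c := (hc ⟨k.1, hKP k.2⟩).mpr h1
    rw [← h3]
    exact k.2

theorem projHom_bijective [Finite G] {P K : Subgroup G} (e : ↥P ≃* Mdl) (hKP : K ≤ P) (c : G)
    (hc : ∀ x : ↥P, (x : G) = c ↔ e x = (1, Multiplicative.ofAdd 1)) (hcK : c ∉ K)
    (h24 : Nat.card ↥K = 24) : Function.Bijective (projHom e hKP) := by
  rw [Nat.bijective_iff_injective_and_card]
  refine ⟨projHom_injective e hKP c hc hcK, ?_⟩
  rw [h24, Nat.card_eq_fintype_card, Fintype.card_perm, Fintype.card_fin]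
  rfl

theorem pkgIso : PkgIso.{u} := by
  intro G _ _ P T Q W c hside K hKP hcK h24
  obtain ⟨e, -, -, -, hc⟩ := hside.ex
  exact ⟨MulEquiv.ofBijective (projHom e hKP) (projHom_bijective e hKP c hc hcK h24)⟩

end Cfsg.Agent.Lib.Helper62.KS
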