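import Mathlib
import Cfsg.Agent.Lib.Helper12.KS.Defs
import Cfsg.Agent.Lib.Helper62.KS.Iso

set_option autoImplicit false

/-!
# S0518 package [Nor2]: normal 2-subgroups of a subgroup of order 24 avoiding `c`
-/

universe u

namespace Cfsg.Agent.Lib.Helper62.KS

open Cfsg.Agent.Lib.Helper12.KS

set_option maxRecDepth 100000 in
/-- outside the four-group, some product of two conjugates is not a 2-element -/
theorem perm4_not_inV : ∀ s : Equiv.Perm (Fin 4), ¬ inV s →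
    ∃ g : Equiv.Perm (Fin 4), (s * (g * s * g⁻¹)) ^ 8 ≠ 1 := by decide

set_option maxRecDepth 100000 in
/-- the nonidentity elements of the four-group are conjugate -/
theorem perm4_inV_conj : ∀ s t : Equiv.Perm (Fin 4), inV s → inV t → s ≠ 1 → t ≠ 1 →
    ∃ g : Equiv.Perm (Fin 4), g * s * g⁻¹ = t := by decide

/-- a 2-element of `S₄` has 8-th power 1 -/
theorem perm4_pow_eight (y : Equiv.Perm (Fin 4)) (j : ℕ) (hy : y ^ 2 ^ j = 1) : y ^ 8 = 1 := by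
  have h24 : y ^ 24 = 1 := by
    have h := pow_card_eq_one (x := y)
    rw [Fintype.card_perm, Fintype.card_fin] at h
    exact h
  have hg : y ^ Nat.gcd (2 ^ j) 24 = 1 := pow_gcd_eq_one.mpr ⟨hy, h24⟩
  have hd : Nat.gcd (2 ^ j) 24 ∣ 8 := by
    have h1 : Nat.gcd (2 ^ j) 24 ∣ 2 ^ j := Nat.gcd_dvd_left _ _
    have h2 : Nat.gcd (2 ^ j) 24 ∣ 24 := Nat.gcd_dvd_right _ _
    obtain ⟨i, hi, hieq⟩ := (Nat.dvd_prime_pow Nat.prime_two).mp h1
    rw [hieq] at h2 ⊢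
    have hi3 : i ≤ 3 := by
      by_contra hcon
      have h3 : 2 ^ 4 ∣ 2 ^ i := pow_dvd_pow 2 (by omega)
      have h4 := h3.trans h2
      norm_num at h4
    have h8 : (8 : ℕ) = 2 ^ 3 := by norm_num
    rw [h8]
    exact pow_dvd_pow 2 hi3
  obtain ⟨m, hm⟩ := hd
  rw [hm, pow_mul, hg, one_pow]

theorem pkgNor2 : PkgNor2.{u} := by
  intro G _ _ P T Q W c hside K hKP hcK h24 hWK N hNK hN2 hNnorm
  obtain ⟨e, -, -, hW, hc⟩ := hside.ex
  have hinj := projHom_injective e hKP c hc hcK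
  have hbij := projHom_bijective e hKP c hc hcK h24
  obtain ⟨f, hfdef⟩ : ∃ f : ↥K →* Equiv.Perm (Fin 4), f = projHom e hKP := ⟨_, rfl⟩
  rw [← hfdef] at hinj hbij
  have hA : ∀ n (hn : n ∈ N), inV (f ⟨n, hNK hn⟩) := by
    intro n hn
    by_contra hnot
    obtain ⟨g, hg⟩ := perm4_not_inV _ hnot
    obtain ⟨k, hk⟩ := hbij.2 g
    apply hg
    have hm : n * (k.1 * n * k.1⁻¹) ∈ N := N.mul_mem hn (hNnorm k.1 k.2 n hn)
    obtain ⟨j, hj⟩ := hN2 ⟨_, hm⟩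
    have hj' : (n * (k.1 * n * k.1⁻¹)) ^ 2 ^ j = 1 := by
      have h := congrArg Subtype.val hj
      simpa using h
    have hmK : (⟨n * (k.1 * n * k.1⁻¹), hNK hm⟩ : ↥K)
        = ⟨n, hNK hn⟩ * (k * ⟨n, hNK hn⟩ * k⁻¹) := rfl
    have hfm : f ⟨n * (k.1 * n * k.1⁻¹), hNK hm⟩
        = f ⟨n, hNK hn⟩ * (g * f ⟨n, hNK hn⟩ * g⁻¹) := by
      rw [hmK, map_mul, map_mul, map_mul, map_inv, hk]
    rw [← hfm]
    apply perm4_pow_eight _ j
    rw [← map_pow]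
    have h1 : (⟨n * (k.1 * n * k.1⁻¹), hNK hm⟩ : ↥K) ^ 2 ^ j = 1 := by
      apply Subtype.ext
      simpa using hj'
    rw [h1, map_one]
  have hC : N ≤ W := by
    intro n hn
    have hinVn := hA n hn
    obtain ⟨x, hx⟩ := e.surjective ((f ⟨n, hNK hn⟩), 1)
    have hxW : (x : G) ∈ W := (hW x).mpr (by rw [hx]; exact ⟨hinVn, rfl⟩)
    have hxK : (x : G) ∈ K := hWK hxW
    have hfx : f ⟨x.1, hxK⟩ = f ⟨n, hNK hn⟩ := by
      have h1 : f ⟨x.1, hxK⟩ = (e ⟨x.1, hKP hxK⟩).1 := by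
        rw [hfdef, projHom_apply]
      have h2 : (⟨x.1, hKP hxK⟩ : ↥P) = x := Subtype.ext rfl
      rw [h1, h2, hx]
    have h3 := hinj hfx
    have h4 : x.1 = n := congrArg Subtype.val h3
    rw [← h4]
    exact hxW
  by_cases hbot : N = ⊥
  · exact Or.inl hbot
  · right
    apply le_antisymm hC
    have hex : ∃ n₀ ∈ N, n₀ ≠ 1 := by
      by_contra hcon
      push Not at hcon
      exact hbot ((Subgroup.eq_bot_iff_forall N).mpr hcon)
    obtain ⟨n₀, hn₀, hn₀1⟩ := hex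
    intro w hw
    by_cases hw1 : w = 1
    · rw [hw1]
      exact N.one_mem
    have hwK : w ∈ K := hWK hw
    have hs := hA n₀ hn₀
    have ht : inV (f ⟨w, hwK⟩) := by
      rw [hfdef, projHom_apply]
      exact ((hW ⟨w, hKP hwK⟩).mp hw).1
    have hs1 : f ⟨n₀, hNK hn₀⟩ ≠ 1 := by
      intro h
      have h3 := hinj (h.trans (map_one f).symm)
      exact hn₀1 (congrArg Subtype.val h3)
    have ht1 : f ⟨w, hwK⟩ ≠ 1 := by
      intro h
      have h3 := hinj (h.trans (map_one f).symm)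
      exact hw1 (congrArg Subtype.val h3)
    obtain ⟨g, hg⟩ := perm4_inV_conj _ _ hs ht hs1 ht1
    obtain ⟨k, hk⟩ := hbij.2 g
    have hm : k.1 * n₀ * k.1⁻¹ ∈ N := hNnorm k.1 k.2 n₀ hn₀
    have hmK : (⟨k.1 * n₀ * k.1⁻¹, hNK hm⟩ : ↥K) = k * ⟨n₀, hNK hn₀⟩ * k⁻¹ := rfl
    have hfm : f ⟨k.1 * n₀ * k.1⁻¹, hNK hm⟩ = f ⟨w, hwK⟩ := by
      rw [hmK, map_mul, map_mul, map_inv, hk, hg]
    have h3 := hinj hfm
    have h4 : k.1 * n₀ * k.1⁻¹ = w := congrArg Subtype.val h3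
    rw [← h4]
    exact hm

end Cfsg.Agent.Lib.Helper62.KS
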